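import Mathlib
import Cfsg.Agent.S3377

/-!
# Subgroups generated by a `(3,5,2)`-pair are alternating of degree five
-/

set_option autoImplicit false
set_option linter.unusedSectionVars false
set_option linter.unusedSimpArgs false

namespace Cfsg.Agent.Lib.Helper41.Dickson

theorem closure_alt_five {G' : Type*} [Group G'] (x y : G') (hx3 : x ^ 3 = 1) (hy5 : y ^ 5 = 1)
    (hxy2 : (x * y) ^ 2 = 1) (hy1 : y ≠ 1) :
    Nonempty (Subgroup.closure ({x, y} : Set G') ≃* alternatingGroup (Fin 5)) := by
  obtain ⟨e⟩ := Cfsg.Agent.S3377.result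
  let f : Fin 2 → G' := ![x, y]
  have hrel : ∀ r ∈ ({FreeGroup.of (0 : Fin 2) ^ 3, FreeGroup.of (1 : Fin 2) ^ 5,
        (FreeGroup.of (0 : Fin 2) * FreeGroup.of 1) ^ 2} : Set (FreeGroup (Fin 2))),
      FreeGroup.lift f r = 1 := by
    intro r hr
    simp only [Set.mem_insert_iff, Set.mem_singleton_iff] at hr
    rcases hr with rfl | rfl | rfl
    · simpa [f] using hx3
    · simpa [f] using hy5
    · simpa [f] using hxy2
  let φ : alternatingGroup (Fin 5) →* G' := (PresentedGroup.toGroup hrel).comp e.symm.toMonoidHom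
  have hinj : Function.Injective φ := by
    rw [← MonoidHom.ker_eq_bot_iff]
    haveI : IsSimpleGroup (alternatingGroup (Fin 5)) := alternatingGroup.isSimpleGroup (by simp)
    rcases (φ.normal_ker).eq_bot_or_eq_top with h | h
    · exact h
    · exfalso
      apply hy1
      have h1 : e (PresentedGroup.of 1) ∈ φ.ker := by rw [h]; trivial
      rw [MonoidHom.mem_ker] at h1
      have h2 : φ (e (PresentedGroup.of 1)) = y := by
        show PresentedGroup.toGroup hrel (e.symm (e (PresentedGroup.of 1))) = y
        rw [MulEquiv.symm_apply_apply, PresentedGroup.toGroup.of]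
        rfl
      rw [← h2, h1]
  have hrange : φ.range = Subgroup.closure ({x, y} : Set G') := by
    have h1 : φ.range = (PresentedGroup.toGroup hrel).range := by
      apply le_antisymm
      · rintro _ ⟨a, rfl⟩
        exact ⟨e.symm a, rfl⟩
      · rintro _ ⟨a, rfl⟩
        exact ⟨e a, by
          show PresentedGroup.toGroup hrel (e.symm (e a)) = _
          rw [MulEquiv.symm_apply_apply]⟩
    rw [h1, MonoidHom.range_eq_map, ← PresentedGroup.closure_range_of, MonoidHom.map_closure]
    congr 1
    ext z
    constructor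
    · rintro ⟨_, ⟨i, rfl⟩, rfl⟩
      rw [PresentedGroup.toGroup.of]
      fin_cases i
      · left; rfl
      · right; rfl
    · rintro (rfl | rfl)
      · exact ⟨_, ⟨0, rfl⟩, by rw [PresentedGroup.toGroup.of]; rfl⟩
      · exact ⟨_, ⟨1, rfl⟩, by rw [PresentedGroup.toGroup.of]; rfl⟩
  exact ⟨(MulEquiv.subgroupCongr hrange.symm).trans (MonoidHom.ofInjective hinj).symm⟩

end Cfsg.Agent.Lib.Helper41.Dickson
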